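import Cfsg.Agent.H334.Ore.M22
import Cfsg.Agent.H334.Ore.M23
import Cfsg.Agent.H334.Ore.M24
import Cfsg.Agent.H142.TC.M22D
import Cfsg.Agent.H142.TC.M23D
import Cfsg.Agent.H142.TC.M24D

/-!
# The rows `M22`, `M23`, `M24` of S4173 (helper142)
-/

set_option autoImplicit false

namespace Cfsg.Agent.H142.TC

open Cfsg Cfsg.Agent.H334.Ore Cfsg.Agent.H494.TC

universe u

/-- Transport, with any universes. -/
theorem pp_congr {G : Type*} {H : Type*} [Group G] [Group H] (e : G ≃* H) (h : PP H) : PP G := by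
  obtain ⟨x, hx, hc, h⟩ := h
  refine ⟨e.symm x, by rwa [MulEquiv.orderOf_eq], by rwa [MulEquiv.orderOf_eq], fun g hg => ?_⟩
  obtain ⟨u, v, e'⟩ := h (e g) (by
    intro h1
    exact hg (e.injective (by rw [h1, map_one])))
  refine ⟨e.symm u, e.symm v, ?_⟩
  apply e.injective
  rw [e']
  simp

/-- **The row `M22`.** -/
theorem pp_m22 {S : Type u} [Group S] (h : Spor.IsoM22 S) : PP S := by
  obtain ⟨e⟩ := h
  exact pp_congr e (pp_of_data Cfsg.Agent.H729.M22Deg.inc_injective M22.hmem M22Data.D (by norm_num : Nat.Prime 11)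
    (by norm_num) M22D.hx M22D.hW M22.cov)

/-- **The row `M23`.** -/
theorem pp_m23 {S : Type u} [Group S] (h : Spor.IsoM23 S) : PP S := by
  obtain ⟨e⟩ := h
  exact pp_congr e (pp_of_data M23.inc23_injective M23.hmem M23Data.D (by norm_num : Nat.Prime 23)
    (by norm_num) M23D.hx M23D.hW M23.cov)

/-- **The row `M24`.** -/
theorem pp_m24 {S : Type u} [Group S] (h : Spor.IsoM24 S) : PP S := by
  obtain ⟨e⟩ := h
  exact pp_congr e (pp_of_data M24R.id_injective M24R.hmem M24Data.D (by norm_num : Nat.Prime 23)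
    (by norm_num) M24D.hx M24D.hW M24R.cov)

end Cfsg.Agent.H142.TC
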